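import Cfsg.Agent.H207.TriFix
import Cfsg.Prelude.Def_ChevAutomorphisms

/-!
# The standard triality automorphisms of `D₄(K)` (S2734)

`cases` : a graph automorphism of order three of `D₄(K)` or its inverse is the restriction of `sig id`.
-/

set_option autoImplicit false

namespace Cfsg.Agent.H207.TriStd

open Cfsg.Lie Cfsg.Agent.ChevalleyStructure
open Cfsg.Agent.ChevalleyStructure.D4Comm
open Cfsg.Agent.ChevalleyStructure.D4RGD
open Cfsg.Agent.ChevalleyStructure.D4Fixed (sig fix coe_sig mem_fix)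
open Cfsg.Agent.CpAutTri.Bru Cfsg.Agent.CpAutTri.Nor Cfsg.Agent.CpAutTri.StdD
open Cfsg.Agent.H207.TriFix

universe u

variable {K : Type u} [Field K]

/-- root elements in the group -/
def xg (r : ℕ) (t : K) : ↥(chevD4.group K) := ⟨Elts.xG hD r t, Elts.xG_mem_group hD r t⟩

theorem coe_xg (r : ℕ) (t : K) : (((xg r t : ↥(chevD4.group K)) : GL chevD4.Idx K) :
    Matrix chevD4.Idx chevD4.Idx K) = chevD4.x K r t := rfl

theorem hom_ext {f g : ↥(chevD4.group K) →* ↥(chevD4.group K)}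
    (h1 : ∀ i < 4, ∀ t : K, f (xg (chevD4.simple i) t) = g (xg (chevD4.simple i) t))
    (h2 : ∀ i < 4, ∀ t : K, f (xg (chevD4.neg (chevD4.simple i)) t) = g (xg (chevD4.neg (chevD4.simple i)) t)) :
    f = g := by
  have key : chevD4.group K ≤ (f.eqLocus g).map (chevD4.group K).subtype := by
    apply TitsThree.KExcBase.group_le_of_simple hD
    · intro i hi t
      exact ⟨xg (chevD4.simple i) t, h1 i hi t, rfl⟩
    · intro i hi t
      exact ⟨xg (chevD4.neg (chevD4.simple i)) t, h2 i hi t, rfl⟩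
  refine MonoidHom.ext fun x => ?_
  obtain ⟨y, hy, e⟩ := key x.2
  have : y = x := Subtype.ext e
  rw [← this]
  exact hy

theorem graphExp_one (c : ℕ) (i j : Fin 4) : chevD4.graphExp c i j = 1 := by
  have h : ∀ j : Fin 4, chevD4.isLong (chevD4.simple j) = false := by decide +kernel
  unfold ChevalleyDatum.graphExp
  rw [h j, Bool.false_and, if_neg (by decide)]

/-- the root elements of the fundamental roots and their negatives are permuted by `π` -/
def Sends (τ : MulAut ↥(chevD4.group K)) (π : Equiv.Perm (Fin 4)) : Prop :=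
  ∀ (i : Fin 4) (t : K), τ (xg (chevD4.simple i) t) = xg (chevD4.simple (π i)) t ∧
    τ (xg (chevD4.neg (chevD4.simple i)) t) = xg (chevD4.neg (chevD4.simple (π i))) t

theorem exists_sends {τ : MulAut ↥(chevD4.group K)} (hτ : chevD4.IsGraphAut τ) :
    ∃ π : Equiv.Perm (Fin 4), chevD4.IsDiagramSymmetry π ∧ Sends τ π := by
  obtain ⟨π, hπ, h⟩ := hτ
  have hg : ∀ i : Fin 4, chevD4.graphExp (ringChar K) i.val (π i).val = 1 := fun i => graphExp_one _ i (π i)
  refine ⟨π, hπ, fun i t => ⟨?_, ?_⟩⟩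
  · have h1 := (h (xg (chevD4.simple i) t) i t).1 rfl
    have h2 : t ^ chevD4.graphExp (ringChar K) i.val (π i).val = t := by rw [hg, pow_one]
    exact Subtype.ext (Units.ext (h1.trans (congrArg (chevD4.x K _) h2)))
  · have h1 := (h (xg (chevD4.neg (chevD4.simple i)) t) i t).2 rfl
    have h2 : t ^ chevD4.graphExp (ringChar K) i.val (π i).val = t := by rw [hg, pow_one]
    exact Subtype.ext (Units.ext (h1.trans (congrArg (chevD4.x K _) h2)))

theorem Sends.ext {τ τ' : MulAut ↥(chevD4.group K)} {π : Equiv.Perm (Fin 4)} (h : Sends τ π) (h' : Sends τ' π) :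
    τ = τ' := by
  have := hom_ext (f := τ.toMonoidHom) (g := τ'.toMonoidHom)
    (fun i hi t => (h ⟨i, hi⟩ t).1.trans (h' ⟨i, hi⟩ t).1.symm)
    (fun i hi t => (h ⟨i, hi⟩ t).2.trans (h' ⟨i, hi⟩ t).2.symm)
  exact MulEquiv.ext fun x => DFunLike.congr_fun this x

theorem Sends.one : Sends (1 : MulAut ↥(chevD4.group K)) 1 := fun _ _ => ⟨rfl, rfl⟩

theorem Sends.mul {τ τ' : MulAut ↥(chevD4.group K)} {π π' : Equiv.Perm (Fin 4)} (h : Sends τ π) (h' : Sends τ' π') :
    Sends (τ * τ') (π * π') := fun i t => by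
  refine ⟨?_, ?_⟩
  · rw [MulAut.mul_apply, (h' i t).1, (h _ t).1]; rfl
  · rw [MulAut.mul_apply, (h' i t).2, (h _ t).2]; rfl

theorem Sends.inv {τ : MulAut ↥(chevD4.group K)} {π : Equiv.Perm (Fin 4)} (h : Sends τ π) : Sends τ⁻¹ π⁻¹ := by
  intro i t
  have h1 := h (π⁻¹ i) t
  have e : π (π⁻¹ i) = i := Equiv.apply_symm_apply π i
  rw [e] at h1
  exact ⟨by rw [← h1.1]; exact MulEquiv.symm_apply_apply τ _, by rw [← h1.2]; exact MulEquiv.symm_apply_apply τ _⟩

theorem Sends.unique {τ : MulAut ↥(chevD4.group K)} {π π' : Equiv.Perm (Fin 4)} (h : Sends τ π) (h' : Sends τ π') :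
    π = π' := by
  ext i
  have e := (h i 1).1.symm.trans (h' i 1).1
  have e1 : xG (chevD4.simple (π i)) (1 : K) = xG (chevD4.simple (π' i)) (1 : K) :=
    Units.ext (congrArg (fun x : ↥(chevD4.group K) => ((x : GL chevD4.Idx K) : Matrix chevD4.Idx chevD4.Idx K)) e)
  have e2 := D4Perm.eq_of_xG_eq (simple_lt' _) (simple_lt' _) (one_ne_zero (α := K)) e1
  have h3 : ∀ i j : Fin 4, chevD4.simple i = chevD4.simple j → i = j := by decide +kernel
  exact congrArg Fin.val (h3 _ _ e2)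

theorem sym_cases' : ∀ π : Equiv.Perm (Fin 4), (∀ i j : Fin 4, i ≠ j → chevD4.bonds (π i) (π j) = chevD4.bonds i j) →
    π ^ 3 = 1 → π ≠ 1 → π = s0 ∨ π = s0⁻¹ := by
  decide +kernel

/-- the standard triality -/
theorem sends_st : Sends (st (1 : K ≃+* K)) s0 := by
  have h1 : ∀ i : Fin 4, (rho (spF i)) = spF (s0 i) := rho_spF
  have h2 : ∀ i : Fin 4, eps (spF i) = 1 := by decide +kernel
  have h3 : ∀ i : Fin 4, (negF (spF i)).val = chevD4.neg (chevD4.simple i) := by decide +kernel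
  have h4 : ∀ i : Fin 4, rho (negF (spF i)) = negF (spF (s0 i)) := by decide +kernel
  have h5 : ∀ i : Fin 4, eps (negF (spF i)) = 1 := by decide +kernel
  intro i t
  constructor
  · apply Subtype.ext
    rw [coe_st (one_pow 3)]
    have e : ((xg (chevD4.simple i) t : ↥(chevD4.group K)) : GL chevD4.Idx K) = xG (spF i).val t := by
      rw [spF_eq]; exact Units.ext rfl
    rw [e, sig_x, h1, h2, Int.cast_one, one_mul, spF_eq]
    exact Units.ext rfl
  · apply Subtype.ext
    rw [coe_st (one_pow 3)]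
    have e : ((xg (chevD4.neg (chevD4.simple i)) t : ↥(chevD4.group K)) : GL chevD4.Idx K) =
        xG (negF (spF i)).val t := by
      rw [h3]; exact Units.ext rfl
    rw [e, sig_x, h4, h5, Int.cast_one, one_mul, h3]
    exact Units.ext rfl

/-- **The graph automorphisms of order three.** -/
theorem graph_cases {τ : MulAut ↥(chevD4.group K)} (hτ : chevD4.IsGraphAut τ) (h3 : orderOf τ = 3) :
    τ = st (1 : K ≃+* K) ∨ τ⁻¹ = st (1 : K ≃+* K) := by
  obtain ⟨π, hπ, hs⟩ := exists_sends hτ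
  have h1 : τ ^ 3 = 1 := by rw [← h3]; exact pow_orderOf_eq_one τ
  have hπ3 : π ^ 3 = 1 := by
    have e := (hs.mul (hs.mul hs))
    have e1 : τ * (τ * τ) = 1 := by rw [← h1, pow_succ, pow_two, mul_assoc]
    rw [e1] at e
    have e2 := e.unique Sends.one
    rw [← e2, pow_succ, pow_two, mul_assoc]
  have hπ1 : π ≠ 1 := by
    rintro rfl
    have : τ = 1 := hs.ext Sends.one
    rw [this, orderOf_one] at h3
    exact absurd h3 (by norm_num)
  rcases sym_cases' π hπ hπ3 hπ1 with rfl | rfl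
  · exact Or.inl (hs.ext sends_st)
  · refine Or.inr (Sends.ext hs.inv ?_)
    rw [inv_inv]
    exact sends_st

/-- the fixed points of the standard triality -/
theorem equiv_st : Nonempty (↥(MonoidHom.eqLocus (st (1 : K ≃+* K)).toMonoidHom
    (MonoidHom.id ↥(chevD4.group K))) ≃* ↥(CS (Sid K))) := by
  have hc : ∀ g : ↥(chevD4.group K), (st (1 : K ≃+* K)) g = g ↔ (g : GL chevD4.Idx K) ∈ CpAutTri.Fam.FS (Sid K) := by
    intro g
    rw [mem_FS_id, ← Subtype.coe_inj, coe_st (one_pow 3)]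
    exact Iff.rfl
  exact ⟨{ toFun := fun g => ⟨((g : ↥(chevD4.group K)) : GL chevD4.Idx K), (g : ↥(chevD4.group K)).2, (hc _).1 g.2⟩
           invFun := fun g => ⟨⟨g.1, g.2.1⟩, (hc ⟨g.1, g.2.1⟩).2 g.2.2⟩
           left_inv := fun g => rfl
           right_inv := fun g => rfl
           map_mul' := fun a b => rfl }⟩

/-- **S2734** -/
theorem main {τ : MulAut ↥(chevD4.group K)} (hτ : chevD4.IsGraphAut τ) (h3 : orderOf τ = 3) :
    Nonempty (↥(MonoidHom.eqLocus τ.toMonoidHom (MonoidHom.id ↥(chevD4.group K))) ≃* ↥(chevG2.group K)) := by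
  obtain ⟨e⟩ := equiv_st (K := K)
  obtain ⟨e'⟩ := equiv_G2 (K := K)
  have key : MonoidHom.eqLocus τ.toMonoidHom (MonoidHom.id ↥(chevD4.group K)) =
      MonoidHom.eqLocus (st (1 : K ≃+* K)).toMonoidHom (MonoidHom.id ↥(chevD4.group K)) := by
    rcases graph_cases hτ h3 with h | h
    · rw [h]
    · rw [← h]
      ext g
      show τ g = g ↔ τ.symm g = g
      rw [MulEquiv.symm_apply_eq, eq_comm]
  rw [key]
  exact ⟨e.trans e'⟩

end Cfsg.Agent.H207.TriStd
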